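import Mathlib
import Cfsg.Agent.TrP.Two

/-! Principal blocks with five characters: basic counting. -/

set_option autoImplicit false

namespace Cfsg.Agent.K5T

open Subgroup Cfsg Cfsg.Agent.Block Cfsg.Agent.Char Cfsg.Agent.TrP

variable {G : Type*} [Group G]

/-- The centralizer of `x` has a normal `2`-complement. -/
abbrev NP (x : G) : Prop := HasNormalPComplement 2 (centralizer ({x} : Set G))

/-- `|C_P(u)|`. -/
noncomputable abbrev cc (P : Subgroup G) (u : G) : ℕ :=
  Nat.card (P ⊓ centralizer ({u} : Set G) : Subgroup G)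

/-- The size of the `p`-section of `x`. -/
noncomputable def sec (p : ℕ) (x : G) : ℕ := Nat.card {g : G // IsConj (pPart p g) x}

/-- The number of `p`-singular elements. -/
noncomputable def sing (p : ℕ) (G : Type*) [Group G] : ℕ := Nat.card {g : G // p ∣ orderOf g}

/-- Elements of `P` with the same central square are conjugate in `P`. -/
def UP (P : Subgroup G) : Prop :=
  ∀ y ∈ P, ∀ y' ∈ P, orderOf y = 4 → y * y = y' * y' → y * y ∈ centralizer (P : Set G) →
    ∃ g ∈ P, g * y * g⁻¹ = y'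

variable [Finite G] {p : ℕ} [hp : Fact p.Prime] {M : Ideal AlgInt}

omit hp in
theorem lAt_pos (hM : IsPModular p M) (x : G) : 0 < lAt p M x := blockRank_pos hM isPBlock_principal

theorem lAt_eq_one (hM : IsPModular p M) (x : G) :
    lAt p M x = 1 ↔ HasNormalPComplement p (centralizer ({x} : Set G)) :=
  blockRank_principal_eq_one_iff hM

theorem cnt (hM : IsPModular p M) (P : Sylow p G) (s : Finset G)
    (hs : ∀ x ∈ s, x ∈ (P : Subgroup G) ∧ x ≠ 1) (hc : ∀ x ∈ s, ∀ y ∈ s, IsConj x y → x = y) :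
    blockRank p (principalBlock M G) + ∑ x ∈ s, lAt p M x ≤ Nat.card (principalBlock M G) := by
  classical
  have := Fintype.ofFinite G
  obtain ⟨e, h⟩ := exists_MP hM isPBlock_principal ((S4652.result p M hM P).2 ⟨P, rfl⟩)
  obtain ⟨ι, _, c, L, -, h1, h2, h3⟩ := exists_count h
  have h0 := (h2 1).trans h.rank_one
  let f : s → ι := fun x => c ⟨x, (hs x x.2).1⟩
  have hf : Function.Injective f := fun x y e =>
    Subtype.ext (hc _ x.2 _ y.2 (PF.isConj ((h1 _ _).1 e)))
  have h4 : c 1 ∉ Finset.univ.image f := by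
    simp only [Finset.mem_image, not_exists, not_and]
    intro x _ e
    exact (hs x x.2).2 ((PF.eq_one_iff ((h1 _ _).1 e)).2 rfl)
  have h5 := Finset.sum_le_sum_of_subset (f := L)
    (Finset.subset_univ (insert (c 1) (Finset.univ.image f)))
  rw [Finset.sum_insert h4, Finset.sum_image fun x _ y _ e => hf e, h0, ← h3] at h5
  refine le_trans (le_of_eq ?_) h5
  rw [← Finset.sum_coe_sort s]
  refine congrArg _ (Finset.sum_congr rfl fun x _ => ?_)
  rw [lAt, ← (induced_eq_principal_iff hM _ (h.ind (hs x x.2).1)).1 rfl, ← h2 ⟨x, _⟩]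

theorem cnt1 (hM : IsPModular p M) (P : Sylow p G) {x : G} (hx : x ∈ (P : Subgroup G))
    (h1 : x ≠ 1) :
    blockRank p (principalBlock M G) + lAt p M x ≤ Nat.card (principalBlock M G) := by
  simpa using cnt hM P {x} (by simpa using ⟨hx, h1⟩) (by simp)

theorem cnt2 (hM : IsPModular p M) (P : Sylow p G) {x y : G} (hx : x ∈ (P : Subgroup G))
    (h1 : x ≠ 1) (hy : y ∈ (P : Subgroup G)) (h2 : y ≠ 1) (h : ¬ IsConj x y) :
    blockRank p (principalBlock M G) + lAt p M x + lAt p M y ≤ Nat.card (principalBlock M G) := by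
  classical
  have h3 : x ≠ y := fun e => h (e ▸ IsConj.refl x)
  have := cnt hM P {x, y} (by simpa using ⟨⟨hx, h1⟩, hy, h2⟩) (by
    simp only [Finset.mem_insert, Finset.mem_singleton]
    rintro _ (rfl | rfl) _ (rfl | rfl) e
    exacts [rfl, absurd e h, absurd e.symm h, rfl])
  rwa [Finset.sum_pair h3, ← add_assoc] at this

theorem cnt3 (hM : IsPModular p M) (P : Sylow p G) {x y z : G} (hx : x ∈ (P : Subgroup G))
    (h1 : x ≠ 1) (hy : y ∈ (P : Subgroup G)) (h2 : y ≠ 1) (hz : z ∈ (P : Subgroup G)) (h3 : z ≠ 1)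
    (hxy : ¬ IsConj x y) (hxz : ¬ IsConj x z) (hyz : ¬ IsConj y z) :
    blockRank p (principalBlock M G) + lAt p M x + lAt p M y + lAt p M z ≤
      Nat.card (principalBlock M G) := by
  classical
  have h4 : x ≠ y := fun e => hxy (e ▸ IsConj.refl x)
  have h5 : x ≠ z := fun e => hxz (e ▸ IsConj.refl x)
  have h6 : y ≠ z := fun e => hyz (e ▸ IsConj.refl y)
  have := cnt hM P {x, y, z} (by simpa using ⟨⟨hx, h1⟩, ⟨hy, h2⟩, hz, h3⟩) (by
    simp only [Finset.mem_insert, Finset.mem_singleton]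
    rintro _ (rfl | rfl | rfl) _ (rfl | rfl | rfl) e
    exacts [rfl, absurd e hxy, absurd e hxz, absurd e.symm hxy, rfl, absurd e hyz,
      absurd e.symm hxz, absurd e.symm hyz, rfl])
  rw [Finset.sum_insert (by simp [h4, h5]), Finset.sum_pair h6] at this
  omega

theorem cnt4 (hM : IsPModular p M) (P : Sylow p G) {x y z w : G} (hx : x ∈ (P : Subgroup G))
    (h1 : x ≠ 1) (hy : y ∈ (P : Subgroup G)) (h2 : y ≠ 1) (hz : z ∈ (P : Subgroup G)) (h3 : z ≠ 1)
    (hw : w ∈ (P : Subgroup G)) (h4 : w ≠ 1)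
    (hxy : ¬ IsConj x y) (hxz : ¬ IsConj x z) (hyz : ¬ IsConj y z) (hxw : ¬ IsConj x w)
    (hyw : ¬ IsConj y w) (hzw : ¬ IsConj z w) :
    blockRank p (principalBlock M G) + 4 ≤ Nat.card (principalBlock M G) := by
  classical
  have h5 : ∀ {a b : G}, ¬ IsConj a b → a ≠ b := fun h e => h (e ▸ IsConj.refl _)
  have := cnt hM P {x, y, z, w} (by simpa using ⟨⟨hx, h1⟩, ⟨hy, h2⟩, ⟨hz, h3⟩, hw, h4⟩) (by
    simp only [Finset.mem_insert, Finset.mem_singleton]
    rintro _ (rfl | rfl | rfl | rfl) _ (rfl | rfl | rfl | rfl) e <;>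
      first | rfl | contradiction | exact absurd e.symm ‹_›)
  rw [Finset.sum_insert (by simp [h5 hxy, h5 hxz, h5 hxw]),
    Finset.sum_insert (by simp [h5 hyz, h5 hyw]), Finset.sum_pair (h5 hzw)] at this
  have := lAt_pos hM x
  have := lAt_pos hM y
  have := lAt_pos hM z
  have := lAt_pos hM w
  omega

/-- The singular elements are covered by the sections of a covering family. -/
theorem sing_le (P : Sylow p G) (s : Finset G)
    (hs : ∀ y ∈ (P : Subgroup G), y ≠ 1 → ∃ x ∈ s, IsConj y x) :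
    sing p G ≤ ∑ x ∈ s, sec p x := by
  classical
  have := Fintype.ofFinite G
  simp only [sing, sec, Nat.card_eq_fintype_card, Fintype.card_subtype]
  refine (Finset.card_le_card fun g hg => ?_).trans Finset.card_biUnion_le
  obtain ⟨y, hy, h⟩ := exists_conj_mem P (orderOf_pPart p g)
  obtain ⟨x, hx, h'⟩ := hs y hy (by
    rintro rfl
    exact pPart_ne_one_iff.2 (Finset.mem_filter.1 hg).2 (isConj_one_left.1 h))
  exact Finset.mem_biUnion.2 ⟨x, hx, by simpa using h.trans h'⟩

omit hp in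
theorem sing_add_reg : sing p G + Nat.card {g : G // ¬ p ∣ orderOf g} = Nat.card G := by
  classical
  have := Fintype.ofFinite G
  simp only [sing, Nat.card_eq_fintype_card, Fintype.card_subtype]
  exact Finset.card_filter_add_card_filter_not _

end Cfsg.Agent.K5T
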