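import Mathlib
import Cfsg.Agent.K5T.Bas

/-! The fusion pattern `(1,1)`. -/

set_option autoImplicit false

namespace Cfsg.Agent.K5T

open Subgroup Cfsg

/-- One class of involutions, one class of elements of order four, exponent four, involution
centralizers with normal `2`-complements, non-abelian Sylow `2`-subgroup. -/
structure T11 {G : Type*} [Group G] (P : Sylow 2 G) : Prop where
  inv : ∀ s t : G, orderOf s = 2 → orderOf t = 2 → IsConj s t
  four : ∀ s t : G, orderOf s = 4 → orderOf t = 4 → IsConj s t
  exp : ∀ x ∈ (P : Subgroup G), x ^ 4 = 1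
  np : ∀ t : G, orderOf t = 2 → NP t
  nab : ¬ IsMulCommutative (P : Subgroup G)

/-- The final configuration in a simple group. -/
structure T4 {G : Type*} [Group G] (P : Sylow 2 G) : Prop where
  big : ∀ u ∈ (P : Subgroup G), 8 ≤ cc (P : Subgroup G) u
  up : UP (P : Subgroup G)
  ncm : ∃ s ∈ (P : Subgroup G), ∃ t ∈ (P : Subgroup G), s * s = 1 ∧ t * t = 1 ∧ s * t ≠ t * s

end Cfsg.Agent.K5T
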