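import Mathlib
import Cfsg.Agent.K5T.Bas

set_option autoImplicit false

namespace Cfsg.Agent.K5T

open Subgroup Cfsg Cfsg.Agent.Block Cfsg.Agent.Char Cfsg.Agent.TrP

variable {G : Type*} [Group G] [Finite G]

theorem g16_aux {T : Type*} [Group T] [Finite T] (h16 : Nat.card T = 16)
    (h8 : ∀ u : T, 8 ≤ Nat.card (centralizer ({u} : Set T))) {u v : T} (huv : v * u * v⁻¹ * u⁻¹ ≠ 1) :
    (∀ a b : T, a * b * a⁻¹ * b⁻¹ ≠ 1 → a * b * a⁻¹ * b⁻¹ = v * u * v⁻¹ * u⁻¹) ∧
      ∃ d ∈ center T, d ≠ 1 ∧ d ≠ v * u * v⁻¹ * u⁻¹ ∧ d ^ 4 = 1 := by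
  have mc : ∀ {a b : T}, a ∈ centralizer ({b} : Set T) ↔ a * b * a⁻¹ * b⁻¹ = 1 := fun {a b} => by
    rw [mem_centralizer_singleton_iff, mul_inv_eq_one, mul_inv_eq_iff_eq_mul]
  have sy : ∀ {a b : T}, a * b * a⁻¹ * b⁻¹ ≠ 1 → b * a * b⁻¹ * a⁻¹ ≠ 1 := fun {a b} h e =>
    h (by rw [← inv_eq_one, ← e]; group)
  have i2 : ∀ {a b : T}, a * b * a⁻¹ * b⁻¹ ≠ 1 → (centralizer ({b} : Set T)).index = 2 := fun {a b} h => by
    have h1 := (centralizer ({b} : Set T)).index_mul_card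
    have h2 := h8 b
    have h3 : (centralizer ({b} : Set T)).index ≠ 1 := fun e =>
      h (mc.1 (index_eq_one.1 e ▸ mem_top a))
    have h4 : (centralizer ({b} : Set T)).index ≠ 0 := index_ne_zero_of_finite
    rw [h16] at h1
    by_contra h5
    have : 3 * 8 ≤ (centralizer ({b} : Set T)).index * Nat.card (centralizer ({b} : Set T)) :=
      Nat.mul_le_mul (by omega) h2
    omega
  have k1 : ∀ {a c b : T}, a * b * a⁻¹ * b⁻¹ ≠ 1 → c * b * c⁻¹ * b⁻¹ ≠ 1 →
      a * b * a⁻¹ * b⁻¹ = c * b * c⁻¹ * b⁻¹ := fun {a c b} h1 h2 => by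
    have h3 : c⁻¹ * a ∈ centralizer ({b} : Set T) := (mul_mem_iff_of_index_two (i2 h1)).2
      (iff_of_false (fun e => h2 (mc.1 (inv_mem_iff.1 e))) fun e => h1 (mc.1 e))
    have h4 := mem_centralizer_singleton_iff.1 h3
    calc a * b * a⁻¹ * b⁻¹ = c * (c⁻¹ * a * b) * a⁻¹ * b⁻¹ := by group
      _ = _ := by rw [h4]; group
  refine ⟨fun a b h => ?_, ?_⟩
  · obtain ⟨c, h1, h2⟩ : ∃ c : T, c * b * c⁻¹ * b⁻¹ ≠ 1 ∧ c * u * c⁻¹ * u⁻¹ ≠ 1 := by
      by_cases e1 : a * u * a⁻¹ * u⁻¹ = 1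
      · by_cases e2 : v * b * v⁻¹ * b⁻¹ = 1
        · exact ⟨a * v, fun e => h (mc.1 ((mul_mem_cancel_right (mc.2 e2)).1 (mc.2 e))),
            fun e => huv (mc.1 ((mul_mem_cancel_left (mc.2 e1)).1 (mc.2 e)))⟩
        · exact ⟨v, e2, huv⟩
      · exact ⟨a, h, e1⟩
    rw [k1 h h1, ← k1 h2 huv, ← inv_inj]
    calc (c * b * c⁻¹ * b⁻¹)⁻¹ = b * c * b⁻¹ * c⁻¹ := by group
      _ = u * c * u⁻¹ * c⁻¹ := k1 (sy h1) (sy h2)
      _ = _ := by group
  set D := centralizer ({u} : Set T) ⊓ centralizer ({v} : Set T) with hD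
  have iu := i2 huv
  have iv := i2 (sy huv)
  have uu : u ∈ centralizer ({u} : Set T) := mc.2 (by group)
  have vv : v ∈ centralizer ({v} : Set T) := mc.2 (by group)
  have uv : u ∉ centralizer ({v} : Set T) := fun e => sy huv (mc.1 e)
  have vu : v ∉ centralizer ({u} : Set T) := fun e => huv (mc.1 e)
  have c4 : Nat.card D = 2 ^ 2 := by
    have h1 := D.index_mul_card
    have h2 : D.index ≤ 2 * 2 := index_inf_le.trans (by rw [iu, iv])
    have h3 : 2 ∣ D.index := iu ▸ index_dvd_of_le inf_le_left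
    have h4 : D.index ≠ 0 := index_ne_zero_of_finite
    have h5 : D.index ≠ 2 := fun e => uv (mem_inf.1 ((show D = centralizer {u} from
      eq_of_le_of_card_ge inf_le_left (by
        have h6 := (centralizer ({u} : Set T)).index_mul_card
        rw [iu] at h6
        rw [e] at h1
        omega)).ge uu)).2
    rw [h16, show D.index = 4 by omega] at h1
    omega
  have : Fact (Nat.Prime 2) := ⟨Nat.prime_two⟩
  have ab := (IsPGroup.isMulCommutative_of_card_eq_prime_sq c4).is_comm.comm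
  obtain ⟨d, hd, h1, h2⟩ : ∃ d ∈ D, d ≠ 1 ∧ d ≠ v * u * v⁻¹ * u⁻¹ := by
    by_contra! h
    have h1 : (D : Set T) ⊆ {1, v * u * v⁻¹ * u⁻¹} := fun d hd => by
      by_cases e : d = 1
      · exact .inl e
      · exact .inr (h d hd e)
    have h2 := (Set.ncard_le_ncard h1).trans (Set.ncard_insert_le _ _)
    rw [Set.ncard_singleton, ← Nat.card_coe_set_eq] at h2
    exact absurd (c4 ▸ h2 : 2 ^ 2 ≤ 1 + 1) (by norm_num)
  refine ⟨d, ?_, h1, h2, ?_⟩
  · have k2 : D ≤ centralizer {d} := fun x hx =>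
      mem_centralizer_singleton_iff.2 (congrArg Subtype.val (ab ⟨x, hx⟩ ⟨d, hd⟩))
    have k3 : u ∈ centralizer ({d} : Set T) :=
      mem_centralizer_singleton_iff.2 (mem_centralizer_singleton_iff.1 (mem_inf.1 hd).1).symm
    have k4 : v ∈ centralizer ({d} : Set T) :=
      mem_centralizer_singleton_iff.2 (mem_centralizer_singleton_iff.1 (mem_inf.1 hd).2).symm
    have k5 : centralizer ({u} : Set T) ≤ centralizer {d} := fun x hx => by
      by_cases e : x ∈ centralizer ({v} : Set T)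
      · exact k2 (mem_inf.2 ⟨hx, e⟩)
      · exact (mul_mem_cancel_left k3).1 (k2 (mem_inf.2 ⟨mul_mem uu hx,
          (mul_mem_iff_of_index_two iv).2 (iff_of_false uv e)⟩))
    refine mem_center_iff.2 fun x => mem_centralizer_singleton_iff.1 ?_
    by_cases e : x ∈ centralizer ({u} : Set T)
    · exact k5 e
    · exact (mul_mem_cancel_left k4).1 (k5 ((mul_mem_iff_of_index_two iu).2 (iff_of_false vu e)))
  · have := congrArg Subtype.val (pow_card_eq_one' (x := (⟨d, hd⟩ : D)))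
    rwa [c4] at this

/-- `Z = Z(P)` has no element of order divisible by 4... precisely: an element of `Z` of order `≥ 4`
has a power of order 4 in `Z`, with `cc = 16`; so `Z` is elementary abelian, `≠ 1`.  Take `u ∈ P - Z`,
`C = C_P(u)` has order 8 and contains `Z ⊔ ⟨u⟩` (order `≥ 4`) in its centre, so `C` is abelian.  For
`v ∈ P - C`, `C ⊓ C_P(v)` has order `≥ 4` and is central in `⟨C, v⟩ = P`, so `#Z ≥ 4`; `P / Z` is not
cyclic, so `#Z = 4`, `P/Z` is a four-group, and all commutators of `P` lie in `{1, w}` for one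
involution `w ∈ Z` (`P' = ⟨[u,v]⟩`).  Let `w' ∈ Z - ⟨w⟩`.  `w`, `w'` are conjugate in `G`, both central
in the Sylow subgroup `P`, so conjugate in `N(P)` (Burnside; `Sylow.conj_eq_normalizer_conj_of_mem_centralizer`),
so `w'` is a commutator of two elements of `P`: contradiction. -/
theorem g16 (P : Sylow 2 G) (h16 : Nat.card (P : Subgroup G) = 16)
    (hna : ¬ IsMulCommutative (P : Subgroup G))
    (h8 : ∀ u ∈ (P : Subgroup G), 8 ≤ cc (P : Subgroup G) u)
    (h4 : ∀ u ∈ (P : Subgroup G), orderOf u = 4 → cc (P : Subgroup G) u < 16)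
    (hinv : ∀ s ∈ (P : Subgroup G), ∀ t ∈ (P : Subgroup G), orderOf s = 2 → orderOf t = 2 →
      IsConj s t) : False := by
  obtain ⟨v, u, huv⟩ : ∃ v u : (P : Subgroup G), v * u * v⁻¹ * u⁻¹ ≠ 1 := by
    by_contra! h
    exact hna ⟨⟨fun a b => mul_inv_eq_iff_eq_mul.1 (mul_inv_eq_one.1 (h a b))⟩⟩
  have hc : ∀ u : (P : Subgroup G),
      Nat.card (centralizer ({u} : Set (P : Subgroup G))) = cc (P : Subgroup G) u := fun u => by
    rw [← card_map_of_injective (P : Subgroup G).subtype_injective]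
    congr 3
    ext x
    constructor
    · rintro ⟨y, hy, rfl⟩
      exact ⟨y.2, mem_centralizer_singleton_iff.2
        (congrArg Subtype.val (mem_centralizer_singleton_iff.1 hy))⟩
    · rintro ⟨h1, h2⟩
      exact ⟨⟨x, h1⟩, mem_centralizer_singleton_iff.2
        (Subtype.ext (mem_centralizer_singleton_iff.1 h2)), rfl⟩
  obtain ⟨k, d, dZ, d1, dw, d4⟩ := g16_aux h16 (fun u => hc u ▸ h8 u u.2) huv
  have od : ∀ x : (P : Subgroup G), x ≠ 1 → x ^ 2 = 1 → orderOf (x : G) = 2 := fun x h1 h2 => by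
    rw [Subgroup.orderOf_coe]
    exact orderOf_eq_prime h2 h1
  have d2 : d ^ 2 = 1 := by
    by_contra e
    have h1 := h4 d d.2 (by
      rw [Subgroup.orderOf_coe]
      exact orderOf_eq_prime_pow (p := 2) (n := 1) e d4)
    rw [← hc, (eq_top_iff' _).2 fun x => mem_centralizer_singleton_iff.2 (mem_center_iff.1 dZ x),
      card_top, h16] at h1
    exact h1.false
  have w2 : (v * u * v⁻¹ * u⁻¹) ^ 2 = 1 := by
    have h1 := k u v fun e => huv (by rw [← inv_eq_one, ← e]; group)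
    rw [pow_two]
    nth_rw 1 [← h1]
    group
  have cj : ∀ n ∈ normalizer ((P : Subgroup G) : Set G),
      n⁻¹ * (v * u * v⁻¹ * u⁻¹ : (P : Subgroup G)) * n = (v * u * v⁻¹ * u⁻¹ : (P : Subgroup G)) := by
    intro n hn
    have m : ∀ x : (P : Subgroup G), n⁻¹ * x * n ∈ (P : Subgroup G) := fun x => by
      simpa using (mem_normalizer_iff.1 (inv_mem hn) x).1 x.2
    have e : (((⟨_, m v⟩ * ⟨_, m u⟩ * ⟨_, m v⟩⁻¹ * ⟨_, m u⟩⁻¹ : (P : Subgroup G)) : G)) =
        n⁻¹ * (v * u * v⁻¹ * u⁻¹ : (P : Subgroup G)) * n := by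
      push_cast
      group
    rw [← e]
    refine congrArg Subtype.val (k _ _ fun h => huv (Subtype.ext ?_))
    rw [h] at e
    have := congrArg (fun x => n * x * n⁻¹) e
    simpa [mul_assoc] using this.symm
  obtain ⟨g, hg⟩ := isConj_iff.1 (hinv _ (v * u * v⁻¹ * u⁻¹).2 _ d.2 (od _ huv w2) (od _ d1 d2))
  obtain ⟨n, hn, e⟩ := P.conj_eq_normalizer_conj_of_mem_centralizer
    (v * u * v⁻¹ * u⁻¹ : (P : Subgroup G)) g⁻¹
    (fun x hx => by
      have := cj x (le_normalizer hx)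
      rw [mul_assoc, inv_mul_eq_iff_eq_mul] at this
      exact this.symm)
    (by
      rw [inv_inv, hg]
      exact fun x hx => congrArg Subtype.val (mem_center_iff.1 dZ ⟨x, hx⟩))
  rw [inv_inv, hg, cj n hn] at e
  exact dw (Subtype.ext e)

end Cfsg.Agent.K5T
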