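import Mathlib
import Cfsg.Agent.K5T.Bas

set_option autoImplicit false

namespace Cfsg.Agent.K5T

open Subgroup Cfsg Cfsg.Agent.Block Cfsg.Agent.Char Cfsg.Agent.TrP

variable {G : Type*} [Group G] [Finite G] {M : Ideal AlgInt}

/-- Pure arithmetic.  `D = A Y - B²`.  `R D = Y N`, `N ≤ 2R`, give `D ≤ 2Y`; `R < N` gives `Y < D`.
`D` is even (`R` odd, `N` even) and `D ≠ 2Y` (else `2R = N`, but `4 ∣ N`, `R` odd).
`B² ≤ |B| Y / 2 ≤ A Y / 2`, so `A Y / 2 ≤ D < 2Y`, `A ≤ 3`.  `A ≤ 1`: `D ≤ Y`.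
`A = 3`: `Y < B² ≤ 9`, `2|B| ≤ Y` force `|B| = 3`, `Y ∈ {6,7,8}`, `D = 9, 12, 15`; `D` even gives
`12 R = 7 N`, impossible as `8 ∣ N`, `R` odd.  `A = 2`: `|B| = 0` gives `D = 2Y`, `|B| = 1` gives `D`
odd.  So `|B| = 2`, `R (2Y - 4) = Y N`.  `Y` odd: the left side is `2 mod 4`; so `Y = 2Y'`,
`2 R (Y' - 1) = Y' N`; `Y'` even: left side `2 mod 4`; so `Y'` is odd, and `q ∣ 2 R (Y' - 1)`,
`R` odd give `q ∣ 2 (Y' - 1) = Y - 2`. -/
theorem num2 {A B Y : ℤ} {R N d : ℕ} (hY : 0 < Y) (h1 : 2 * |B| ≤ Y) (h2 : |B| ≤ A)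
    (h3 : R * (A * Y - B ^ 2) = Y * N) (h4 : Odd R) (h5 : 2 ^ d ∣ N) (hd : 3 ≤ d) (h6 : N ≤ 2 * R)
    (h7 : R < N) : A = 2 ∧ |B| = 2 ∧ (2 ^ d : ℤ) ∣ Y - 2 := by
  have key : ∀ u v : ℤ, R * u = v * N → (2 : ℤ) ^ d ∣ u := fun u v e =>
    ((Nat.isCoprime_iff_coprime.2 (Nat.coprime_two_left.2 h4)).pow_left
      ).dvd_of_dvd_mul_left (e ▸ Dvd.dvd.mul_left (by exact_mod_cast h5) v)
  have k8 : ∀ u v : ℤ, R * u = v * N → 8 ∣ u := fun u v e => by
    simpa using (pow_dvd_pow _ hd).trans (key u v e)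
  have h0 := abs_nonneg B
  have hR : (0 : ℤ) < R := Nat.cast_pos.2 h4.pos
  rw [← sq_abs B] at h3
  generalize |B| = b at *
  have h8 : (N : ℤ) < 2 * R := by
    refine lt_of_le_of_ne (by exact_mod_cast h6) fun e => ?_
    have := k8 2 1 (by linarith)
    omega
  have h9 : (R : ℤ) < N := by exact_mod_cast h7
  have h10 : Y < A * Y - b ^ 2 := lt_of_mul_lt_mul_left (a := (R : ℤ)) (by nlinarith) hR.le
  have h11 : A * Y - b ^ 2 < 2 * Y := lt_of_mul_lt_mul_left (a := (R : ℤ)) (by nlinarith) hR.le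
  have h12 := k8 _ _ h3
  have h13 : A < 4 := by nlinarith
  have h14 : 1 < A := by nlinarith
  obtain rfl | rfl : A = 2 ∨ A = 3 := by omega
  · obtain rfl | rfl | rfl : b = 0 ∨ b = 1 ∨ b = 2 := by omega
    · omega
    · omega
    · obtain ⟨w, hw⟩ := h12
      exact ⟨rfl, rfl, key _ (2 * w + 1) (by rw [show Y = 4 * w + 2 by omega] at h3 ⊢; linarith)⟩
  · obtain rfl | rfl | rfl | rfl : b = 0 ∨ b = 1 ∨ b = 2 ∨ b = 3 := by omega
    all_goals omega

/-- Reduction of the Gram data: replace `x` by `x - m • y` with `m` the integer nearest to `B / Y`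
(`A Y - B²` is invariant); then `2|B'| ≤ Y`, and the inequality `h` at the two values of `m'` with
`(2 m' + 1) Y - 2 B = ± Y - 2 B'` gives `|B'| ≤ A'` (cf. `TrP.arith`). -/
theorem red2 {n : ℕ} (x y : Fin n → ℤ) (hY : 0 < ∑ i, y i * y i)
    (h : ∀ m : ℤ, (∑ i, y i * y i) ^ 2 ≤ 4 * ((∑ i, x i * x i) * (∑ i, y i * y i) -
        (∑ i, x i * y i) ^ 2) + ((2 * m + 1) * (∑ i, y i * y i) - 2 * ∑ i, x i * y i) ^ 2) :
    ∃ m : ℤ, 2 * |∑ i, (x i - m * y i) * y i| ≤ ∑ i, y i * y i ∧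
      |∑ i, (x i - m * y i) * y i| ≤ ∑ i, (x i - m * y i) * (x i - m * y i) ∧
      (∑ i, (x i - m * y i) * (x i - m * y i)) * (∑ i, y i * y i) -
        (∑ i, (x i - m * y i) * y i) ^ 2 =
      (∑ i, x i * x i) * (∑ i, y i * y i) - (∑ i, x i * y i) ^ 2 := by
  have e1 : ∀ m : ℤ, ∑ i, (x i - m * y i) * y i = ∑ i, x i * y i - m * ∑ i, y i * y i := fun m => by
    rw [Finset.mul_sum, ← Finset.sum_sub_distrib]
    exact Finset.sum_congr rfl fun i _ => by ring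
  have e2 : ∀ m : ℤ, ∑ i, (x i - m * y i) * (x i - m * y i) =
      ∑ i, x i * x i - 2 * m * ∑ i, x i * y i + m ^ 2 * ∑ i, y i * y i := fun m => by
    rw [Finset.mul_sum, Finset.mul_sum, ← Finset.sum_sub_distrib, ← Finset.sum_add_distrib]
    exact Finset.sum_congr rfl fun i _ => by ring
  simp only [e1, e2]
  generalize ∑ i, x i * x i = A at *
  generalize ∑ i, x i * y i = B at *
  generalize ∑ i, y i * y i = Y at *
  obtain ⟨k, hk⟩ : ∃ k : ℤ, 2 * |B - k * Y| ≤ Y := by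
    have h8 := Int.emod_nonneg B hY.ne'
    have h9 := Int.emod_lt_of_pos B hY
    have h10 := Int.emod_add_ediv_mul B Y
    rcases le_total (2 * (B % Y)) Y with e | e
    · exact ⟨B / Y, by rw [abs_of_nonneg (by omega)]; omega⟩
    · exact ⟨B / Y + 1, by rw [add_one_mul, abs_of_nonpos (by omega)]; omega⟩
  refine ⟨k, hk, le_of_mul_le_mul_right ?_ hY, by ring⟩
  have h9 := h k
  have h10 := h (k - 1)
  rcases abs_cases (B - k * Y) with e | e <;> rw [e.1] <;> nlinarith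

/-- `l(B₀) = 2`.  `exists_en` (the block is nonempty and finite), `En.gram`, `red2`, `num2` with
`R = #regular` (odd: `not_dvd_card_pRegular`), `N = #G = sing + R` (`sing_add_reg`; `sing > 0` as
there is an involution), `q = #P = 2^d`: `R (2Y - 4) = Y N` with `q ∣ Y - 2`, `Y ≥ 4`, so
`Y - 2 ≥ q` and `sing / N = 1/2 - 1/(Y-2) ≥ 1/2 - 1/q`. -/
theorem gr (hM : IsPModular 2 M) (P : Sylow 2 G) (hl : blockRank 2 (principalBlock M G) = 2)
    (h8 : 8 ∣ Nat.card (P : Subgroup G)) (h : 2 * sing 2 G ≤ Nat.card G) :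
    Nat.card (P : Subgroup G) * Nat.card G ≤
      2 * Nat.card (P : Subgroup G) * sing 2 G + 2 * Nat.card G := by
  have : Fact (Nat.Prime 2) := ⟨Nat.prime_two⟩
  have : Nonempty (principalBlock M G) := ⟨⟨_, irrOne_mem_principal hM⟩⟩
  obtain ⟨n, hn⟩ := Nat.exists_eq_succ_of_ne_zero (Nat.card_pos (α := principalBlock M G)).ne'
  obtain ⟨c, hc⟩ := exists_en hM hn
  obtain ⟨x, y, -, -, -, hY, h1, h2⟩ := hc.gram hM hl
  obtain ⟨m, h3, h4, h5⟩ := red2 x y hY h2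
  rw [← h5] at h1
  obtain ⟨d, hd⟩ := IsPGroup.iff_card.1 P.isPGroup'
  have h6 : 3 ≤ d := by
    rw [hd, show 8 = 2 ^ 3 by norm_num, Nat.pow_dvd_pow_iff_le_right (by norm_num)] at h8
    exact h8
  have h7 := sing_add_reg (p := 2) (G := G)
  have h9 := not_dvd_card_pRegular 2 G
  have h10 : 2 ^ d ∣ Nat.card G := hd ▸ card_subgroup_dvd_card _
  have h11 : 0 < sing 2 G := Nat.pos_of_ne_zero fun e => h9 (by
    rw [e, zero_add] at h7
    rw [h7]
    exact (dvd_pow_self 2 (by omega)).trans h10)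
  obtain ⟨e1, e2, e3⟩ := num2 hY h3 h4 h1 (Nat.odd_iff.2 (by omega)) h10 h6 (by omega) (by omega)
  rw [← sq_abs, e1, e2] at h1
  rw [e2] at h3
  rw [hd]
  generalize ∑ i, y i * y i = Y at *
  have h12 := Int.le_of_dvd (by omega) e3
  generalize Nat.card {g : G // ¬ 2 ∣ orderOf g} = R at *
  zify at h7 h h11 ⊢
  generalize (2 : ℤ) ^ d = q at *
  generalize (sing 2 G : ℤ) = s at *
  generalize (Nat.card G : ℤ) = N at *
  have h13 : (Y - 2) * (N - 2 * s) = 2 * N := by rw [← h7] at h1 ⊢; linarith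
  have h14 := mul_le_mul_of_nonneg_right h12 (sub_nonneg.2 h)
  linarith

/-- If `2 * sing ≤ N` then `gr` gives `sing ≥ (1/2 - 1/8) N`; otherwise `sing > N / 2`. -/
theorem reg_le (hM : IsPModular 2 M) (P : Sylow 2 G) (hl : blockRank 2 (principalBlock M G) = 2)
    (h8 : 8 ∣ Nat.card (P : Subgroup G)) :
    8 * Nat.card {g : G // ¬ 2 ∣ orderOf g} ≤ 5 * Nat.card G := by
  have h7 := sing_add_reg (p := 2) (G := G)
  rcases le_or_gt (2 * sing 2 G) (Nat.card G) with h | h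
  · have h1 := gr hM P hl h8 h
    have h2 := Nat.le_of_dvd Nat.card_pos h8
    obtain ⟨t, ht⟩ := Nat.exists_eq_add_of_le h
    rw [ht] at h1 h7 ⊢
    have h3 := Nat.mul_le_mul_right t h2
    nlinarith
  · omega

end Cfsg.Agent.K5T
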