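import Mathlib
import Cfsg.Agent.K5T.Gr

set_option autoImplicit false

namespace Cfsg.Agent.K5T

open Subgroup Cfsg Cfsg.Agent.Block Cfsg.Agent.Char Cfsg.Agent.TrP
open scoped ComplexConjugate

variable {G : Type*} [Group G] [Finite G] {M : Ideal AlgInt}

theorem gramE {p : ℕ} [hp : Fact p.Prime] {n : ℕ} {c : Fin (n + 1) → IrrCharacter G} (h : En M c) (hM : IsPModular p M)
    (hl : blockRank p (principalBlock M G) = 2) :
    ∃ (x y : Fin (n + 1) → ℤ) (φ : G → ℂ), x 0 = 1 ∧ y 0 = 0 ∧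
      (∀ i g, ¬ p ∣ orderOf g → (c i : G → ℂ) g = x i + y i * φ g) ∧
      (∀ g, p ∣ orderOf g → cmb c x g = 0 ∧ cmb c y g = 0) ∧ 0 < ∑ i, y i * y i ∧
      Nat.card {g : G // ¬ p ∣ orderOf g} *
        ((∑ i, x i * x i) * (∑ i, y i * y i) - (∑ i, x i * y i) ^ 2) =
          (∑ i, y i * y i) * Nat.card G ∧
      ∀ m : ℤ, (∑ i, y i * y i) ^ 2 ≤ 4 * ((∑ i, x i * x i) * (∑ i, y i * y i) -
        (∑ i, x i * y i) ^ 2) + ((2 * m + 1) * (∑ i, y i * y i) - 2 * ∑ i, x i * y i) ^ 2 := by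
  classical
  have := Fintype.ofFinite G
  obtain ⟨x, y, φ, hφ, h1, h2, h3, h4, h5⟩ := h.exists_two hM hl
  have hY : 0 < ∑ i, y i * y i := (Finset.sum_nonneg fun i _ => mul_self_nonneg (y i)).lt_of_ne'
    fun e => h3 (funext fun i => mul_self_eq_zero.1 ((Finset.sum_eq_zero_iff_of_nonneg
      fun i _ => mul_self_nonneg (y i)).1 e i (Finset.mem_univ i)))
  have h6 : ∀ z g, ¬ p ∣ orderOf g → cmb c z g =
      (∑ i, x i * z i : ℤ) + (∑ i, y i * z i : ℤ) * φ g := fun z g hg => by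
    simp only [cmb_apply, h4 _ g hg, Int.cast_sum, Finset.sum_mul, ← Finset.sum_add_distrib]
    exact Finset.sum_congr rfl fun i _ => by push_cast; ring
  have h7 : ∀ F : G → ℂ, (∀ g, p ∣ orderOf g → F g = 0) →
      ∑ g with ¬ p ∣ orderOf g, F g = ∑ g, F g := fun F hF =>
    Finset.sum_filter_of_ne fun g _ e e' => e (hF g e')
  have hx := (h7 _ fun g hg => (h5 g hg).1).trans (h.sum_cmb x)
  have hy := (h7 _ fun g hg => (h5 g hg).2).trans (h.sum_cmb y)
  have hyy := (h7 _ fun g hg => by rw [(h5 g hg).2, zero_mul]).trans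
    ((sum_mul_conj_eq (cmb c y) (cmb c y)).trans (congrArg _ (h.inner y y)))
  have hr : Nat.card {g : G // ¬ p ∣ orderOf g} =
      (Finset.univ.filter fun g : G => ¬ p ∣ orderOf g).card := by
    rw [Nat.card_eq_fintype_card, Fintype.card_subtype]
  have hy' := hy
  rw [Finset.sum_congr rfl fun g hg => h6 _ g (Finset.mem_filter.1 hg).2, Finset.sum_add_distrib,
    Finset.sum_const, ← Finset.mul_sum, nsmul_eq_mul, ← hr] at hx hy
  rw [Finset.sum_congr rfl fun i _ => mul_comm (y i) (x i)] at hx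
  rw [h1] at hx
  rw [h2] at hy hy'
  have h8 : Nat.card {g : G // ¬ p ∣ orderOf g} *
      ((∑ i, x i * x i) * (∑ i, y i * y i) - (∑ i, x i * y i) ^ 2) =
        (∑ i, y i * y i) * Nat.card G := by
    refine Int.cast_injective (α := ℂ) ?_
    push_cast at hx hy ⊢
    linear_combination (∑ i, (y i : ℂ) * y i) * hx - (∑ i, (x i : ℂ) * y i) * hy
  refine ⟨x, y, φ, h1, h2, h4, h5, hY, h8, fun m => ?_⟩
  have h9 := card_reg_le (p := p) ((isGen_one.intCast_smul (2 * m + 1)).add (hφ.intCast_smul 2))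
    fun g _ e => by
      have := isUnit_of_mul (a := 2) ((isIntegral_algebraMap (x := m)).add (hφ.isIntegral g))
        (by simp at e ⊢; linear_combination e)
      omega
  have h10 := @Nat.card_pos {g : G // ¬ p ∣ orderOf g} ⟨⟨1, not_dvd_orderOf_one⟩⟩ _
  rw [← hr] at h9
  generalize Nat.card {g : G // ¬ p ∣ orderOf g} = R at *
  generalize hA : ∑ i, x i * x i = A at *
  generalize hB : ∑ i, x i * y i = B at *
  generalize hY' : ∑ i, y i * y i = Y at *
  generalize hT : ∑ g with ¬ p ∣ orderOf g, ‖((((2 * m + 1 : ℤ) : ℂ) • fun _ : G => (1 : ℂ)) +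
      ((2 : ℤ) : ℂ) • φ) g‖ ^ 2 = T at h9
  have h11 : (Y : ℂ) ^ 2 * T = 4 * (Nat.card G * Y) + R * ((2 * m + 1) * Y - 2 * B) ^ 2 := by
    have h12 := congrArg conj hy'
    simp only [map_sum, Int.cast_zero, mul_zero, map_zero] at h12 hy'
    rw [← add_zero (4 * _), ← mul_zero (2 * ((2 * m + 1) * Y - 2 * B : ℂ)),
      ← (congrArg₂ (· + ·) h12 hy').trans (add_zero 0), ← hyy, ← hT, hr, ← nsmul_eq_mul,
      ← Finset.sum_const]
    simp only [Complex.ofReal_sum, Finset.mul_sum, ← Finset.sum_add_distrib]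
    refine Finset.sum_congr rfl fun g hg => ?_
    rw [h6 _ g (Finset.mem_filter.1 hg).2, hB, hY', Complex.ofReal_pow, ← Complex.mul_conj']
    simp only [Pi.add_apply, Pi.smul_apply, smul_eq_mul, map_add, map_mul, map_intCast, map_one]
    push_cast
    ring
  have h12 : (Y : ℝ) ^ 2 * T = 4 * (Nat.card G * Y) + R * ((2 * m + 1) * Y - 2 * B) ^ 2 := by
    exact_mod_cast h11
  have h13 : Y ^ 2 * R ≤ 4 * (Nat.card G * Y) + R * ((2 * m + 1) * Y - 2 * B) ^ 2 := by
    exact_mod_cast (mul_le_mul_of_nonneg_left h9 (sq_nonneg (Y : ℝ))).trans h12.le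
  exact le_of_mul_le_mul_left (a := (R : ℤ)) (by linarith) (by exact_mod_cast h10)

theorem threeE {a b c : ℤ} (h : 4 ∣ a * a + b * b + c * c + 2) :
    (Even a ∧ Odd b ∧ Odd c) ∨ (Odd a ∧ Even b ∧ Odd c) ∨ (Odd a ∧ Odd b ∧ Even c) := by
  rcases Int.even_or_odd' a with ⟨a, rfl | rfl⟩ <;> rcases Int.even_or_odd' b with ⟨b, rfl | rfl⟩ <;>
    rcases Int.even_or_odd' c with ⟨c, rfl | rfl⟩ <;>
    first | (simp; done) | (exfalso; ring_nf at h; omega)

theorem combE (x y : Fin 5 → ℤ) (h1 : x 0 = 1) (h2 : y 0 = 0) (h3 : ∑ i, x i * x i = 2)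
    (h4 : |∑ i, x i * y i| = 2) (h5 : 8 ∣ ∑ i, y i * y i - 2) :
    ∃ i k j : Fin 5, i ≠ 0 ∧ k ≠ 0 ∧ j ≠ 0 ∧ k ≠ i ∧ j ≠ i ∧ j ≠ k ∧ x i * x i = 1 ∧
      (∀ l, l ≠ 0 → l ≠ i → x l = 0) ∧ Even (y k) ∧ ∀ l, l ≠ 0 → l ≠ i → l ≠ k → Odd (y l) := by
  obtain ⟨i, hi, h6, h7⟩ : ∃ i : Fin 5, i ≠ 0 ∧ x i * x i = 1 ∧ ∀ l, l ≠ 0 → l ≠ i → x l = 0 := by
    rw [Fin.sum_univ_five, h1] at h3
    have a1 := mul_self_nonneg (x 1)
    have a2 := mul_self_nonneg (x 2)
    have a3 := mul_self_nonneg (x 3)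
    have a4 := mul_self_nonneg (x 4)
    have : (x 1 * x 1 = 1 ∧ x 2 * x 2 = 0 ∧ x 3 * x 3 = 0 ∧ x 4 * x 4 = 0) ∨
        (x 2 * x 2 = 1 ∧ x 1 * x 1 = 0 ∧ x 3 * x 3 = 0 ∧ x 4 * x 4 = 0) ∨
        (x 3 * x 3 = 1 ∧ x 1 * x 1 = 0 ∧ x 2 * x 2 = 0 ∧ x 4 * x 4 = 0) ∨
        (x 4 * x 4 = 1 ∧ x 1 * x 1 = 0 ∧ x 2 * x 2 = 0 ∧ x 3 * x 3 = 0) := by omega
    simp only [mul_self_eq_zero] at this
    rcases this with e | e | e | e
    · exact ⟨1, by decide, e.1, fun l => by fin_cases l <;> simp [e]⟩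
    · exact ⟨2, by decide, e.1, fun l => by fin_cases l <;> simp [e]⟩
    · exact ⟨3, by decide, e.1, fun l => by fin_cases l <;> simp [e]⟩
    · exact ⟨4, by decide, e.1, fun l => by fin_cases l <;> simp [e]⟩
  have h8 : y i * y i = 4 := by
    rw [Finset.sum_eq_single i (fun l _ hl => by
      by_cases e : l = 0
      · rw [e, h2, mul_zero]
      · rw [h7 l e hl, zero_mul]) (by simp)] at h4
    have := sq_abs (x i * y i)
    rw [h4] at this
    linear_combination -this - y i * y i * h6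
  obtain ⟨a, b, d, h9⟩ := (by decide : ∀ i : Fin 5, i ≠ 0 → ∃ a b d : Fin 5,
    ({0, i, a, b, d} : Finset (Fin 5)) = Finset.univ ∧ a ≠ 0 ∧ b ≠ 0 ∧ d ≠ 0 ∧ a ≠ i ∧ b ≠ i ∧
      d ≠ i ∧ a ≠ b ∧ a ≠ d ∧ b ≠ d ∧ ∀ l, l ≠ 0 → l ≠ i → l = a ∨ l = b ∨ l = d) i hi
  obtain ⟨h9, a0, b0, d0, ai, bi, di, ab, ad, bd, h10⟩ := h9
  rw [← h9, Finset.sum_insert (by simp [hi.symm, a0.symm, b0.symm, d0.symm]),
    Finset.sum_insert (by simp [ai.symm, bi.symm, di.symm]), Finset.sum_insert (by simp [ab, ad]),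
    Finset.sum_pair bd, h2, h8] at h5
  rcases threeE (a := y a) (b := y b) (c := y d) (by omega) with e | e | e
  · refine ⟨i, a, b, hi, a0, b0, ai, bi, ab.symm, h6, h7, e.1, fun l l0 li lk => ?_⟩
    rcases h10 l l0 li with rfl | rfl | rfl
    exacts [(lk rfl).elim, e.2.1, e.2.2]
  · refine ⟨i, b, a, hi, b0, a0, bi, ai, ab, h6, h7, e.2.1, fun l l0 li lk => ?_⟩
    rcases h10 l l0 li with rfl | rfl | rfl
    exacts [e.1, (lk rfl).elim, e.2.2]
  · refine ⟨i, d, a, hi, d0, a0, di, ai, ad, h6, h7, e.2.2, fun l l0 li lk => ?_⟩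
    rcases h10 l l0 li with rfl | rfl | rfl
    exacts [e.1, e.2.1, (lk rfl).elim]

omit [Finite G] in
theorem reg_sqE (h4 : ∀ g : G, ¬ 4 ∣ orderOf g) (g : G) : ¬ 2 ∣ orderOf (g * g) := fun e => by
  refine h4 g ?_
  rw [← sq, orderOf_pow' g two_ne_zero] at e
  have h1 := Nat.gcd_dvd_left (orderOf g) 2
  have h2 := Nat.gcd_dvd_right (orderOf g) 2
  have h3 := Nat.div_mul_cancel h1
  rcases (Nat.dvd_prime Nat.prime_two).1 h2 with e' | e'
  · rw [e', Nat.div_one] at e
    have := Nat.dvd_gcd e (dvd_refl 2)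
    omega
  · rw [e'] at e h3
    omega

/-- `k = 5`, `l = 2`, no element of order `4`.  Take `c : Fin 5 → Irr` (`exists_en`).  You need BOTH
the data of `En.exists_two` (`x y φ`) and the Gram facts of `En.gram` for the SAME `x y`: copy the
proof of `En.gram` (TrP/Two) into a lemma which also returns `φ` and the facts `h4`, `h5`.
`red2`, `num2` (as in `gr`): for `x' = x - m y`: `∑ x'² = 2`, `|x'·y| = 2`, `8 ∣ Y - 2`.  `x' 0 = 1`,
`y 0 = 0`, so `x' = e₀ ± e_i` for one `i ≠ 0`, `y i = ± 2`, and for the three other indices `j`: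
`x' j = 0`, `c j = y j * φ` on regular elements (`c j = x j + y j φ₀`, put `φ = φ₀ + m`), `y j ≠ 0`,
`∑ y j² = Y - 4 ≡ 6 mod 8`, so exactly one of the three, `y k`, is even.
FS: if `w·x' = 0 = w·y` then `cmb c w` vanishes on regular elements; `g * g` is regular for every
`g` (no order divisible by 4), so `∑ w i * fsInd (c i) = 0` (as in `Cst.fs`).  With
`w = y k • e_j - y j • e_k` (`j ≠ k` among the three): `ν j * y k = ν k * y j`, `ν ∈ {0, 1, -1}`
(Char/FS); `y j` odd and `y k` even nonzero force `ν k = 0`, hence `ν j = 0` for all three.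
So `c k` is not real: its complex conjugate is `c k'` (conjugate of a member of `B₀` is in `B₀`,
Block/GalBlock), `k' ≠ k`, same degree.  `k' ≠ 0`.  Degrees: `c j 1 = y j * φ 1` (`φ 1 ≠ 0`) gives
`y k' = y k` if `k'` is one of the three, contradiction with parity.  If `k' = i`: `cmb c x'`
vanishes on singular elements, so `c i = ∓ 1` there, hence also `c k = c i` on singular elements,
so `cmb c (e_i - e_k)` vanishes on singular and `cmb c w` on regular elements, their inner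
product (`En.inner`) is `0 = (e_i - e_k)·w = y j ≠ 0`, contradiction. -/
theorem no_exp2 (hM : IsPModular 2 M) (P : Sylow 2 G) (hk : Nat.card (principalBlock M G) = 5)
    (hl : blockRank 2 (principalBlock M G) = 2) (h8 : 8 ∣ Nat.card (P : Subgroup G))
    (h : 2 * sing 2 G ≤ Nat.card G) (h4 : ∀ g : G, ¬ 4 ∣ orderOf g) : False := by
  classical
  have := Fintype.ofFinite G
  obtain ⟨c, hc⟩ := exists_en (n := 4) hM hk
  obtain ⟨x₀, y, φ₀, h1, h2, h3, h5, hY, h6, h7⟩ := gramE hc hM hl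
  obtain ⟨m, h9, h10, h11⟩ := red2 x₀ y hY h7
  have hN : 8 ∣ Nat.card G := h8.trans (card_subgroup_dvd_card _)
  have hs := sing_add_reg (p := 2) (G := G)
  have hpos : 0 < sing 2 G := by
    obtain ⟨t, ht⟩ := exists_prime_orderOf_dvd_card' (G := G) 2 (Dvd.dvd.trans (by norm_num) hN)
    exact @Nat.card_pos _ ⟨⟨t, ht ▸ dvd_refl _⟩⟩ _
  rw [← h11] at h6
  obtain ⟨hA, hB, hD⟩ := num2 (d := 3) hY h9 h10 h6
    (Nat.odd_iff.2 (by have := not_dvd_card_pRegular 2 G; omega)) hN le_rfl (by omega) (by omega)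
  set x : Fin 5 → ℤ := fun i => x₀ i - m * y i with hx
  obtain ⟨i, k, j, i0, k0, j0, ki, ji, jk, hi, hz, he, ho⟩ := combE x y (by simp [hx, h1, h2]) h2 hA hB
    hD
  have hreg : ∀ l, l ≠ 0 → l ≠ i → ∀ g, ¬ 2 ∣ orderOf g →
      (c l : G → ℂ) g = y l * (φ₀ g + m) := fun l l0 li g hg => by
    have e : (x₀ l : ℂ) - m * y l = 0 := by exact_mod_cast hz l l0 li
    rw [h3 l g hg]
    linear_combination e
  have hsing : ∀ g, 2 ∣ orderOf g → (c i : G → ℂ) g = - x i := fun g hg => by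
    have e : cmb c x g = 0 := by
      have e1 := (h5 g hg).1
      have e2 := (h5 g hg).2
      simp only [cmb_apply] at e1 e2 ⊢
      simp only [hx, Int.cast_sub, Int.cast_mul, sub_mul, Finset.sum_sub_distrib, mul_assoc,
        ← Finset.mul_sum, e1, e2, mul_zero, sub_zero]
    rw [cmb_apply, Finset.sum_eq_add 0 i i0.symm (fun l _ hl => by
      rw [hz l hl.1 hl.2]; simp) (by simp) (by simp), hc.zero_apply,
      show x 0 = 1 by simp [hx, h1, h2]] at e
    have e' : (x i : ℂ) * x i = 1 := by exact_mod_cast hi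
    push_cast at e
    linear_combination x i * e - (c i : G → ℂ) g * e'
  have hyk : y k ≠ 0 := fun e => (c k).2.one_ne_zero (by
    rw [hreg k k0 ki 1 not_dvd_orderOf_one, e]; simp)
  have hφ : φ₀ 1 + m ≠ 0 := fun e => (c k).2.one_ne_zero (by
    rw [hreg k k0 ki 1 not_dvd_orderOf_one, e]; simp)
  have hoj := ho j j0 ji jk
  have hw : ∀ g, ¬ 2 ∣ orderOf g → y j * (c k : G → ℂ) g = y k * (c j : G → ℂ) g := fun g hg => by
    rw [hreg k k0 ki g hg, hreg j j0 ji g hg]; ring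
  have hfs : y j * fsInd (c k : G → ℂ) = y k * fsInd (c j : G → ℂ) := by
    simp only [fsInd_def, mul_left_comm _ (Nat.card G : ℂ)⁻¹, Finset.mul_sum]
    exact Finset.sum_congr rfl fun g _ => by rw [hw _ (reg_sqE h4 g)]
  have hν : fsInd (c k : G → ℂ) = 0 := by
    have key : ∀ s t : ℤ, s * s = 1 → fsInd (c k : G → ℂ) = s → fsInd (c j : G → ℂ) = t → False :=
      fun s t e1 e2 e3 => by
        rw [e2, e3] at hfs
        have e4 : y j * s = y k * t := by exact_mod_cast hfs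
        have e5 : y j = y k * (t * s) := by linear_combination s * e4 - y j * e1
        exact Int.not_even_iff_odd.2 hoj (e5 ▸ he.mul_right _)
    rcases fsInd_trichotomy (c k).2 with e | e | e
    · exact e
    all_goals rcases fsInd_trichotomy (c j).2 with e' | e' | e'
    · exact (key 1 0 rfl (by simpa using e) (by simpa using e')).elim
    · exact (key 1 1 rfl (by simpa using e) (by simpa using e')).elim
    · exact (key 1 (-1) rfl (by simpa using e) (by simpa using e')).elim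
    · exact (key (-1) 0 rfl (by simpa using e) (by simpa using e')).elim
    · exact (key (-1) 1 rfl (by simpa using e) (by simpa using e')).elim
    · exact (key (-1) (-1) rfl (by simpa using e) (by simpa using e')).elim
  obtain ⟨k', hk'⟩ := hc.rng.ge ((galIrr_mem_principal_iff hM (starRingAut : ℂ ≃+* ℂ)).2 (hc.mem k))
  have hcj : ∀ g, (c k' : G → ℂ) g = conj ((c k : G → ℂ) g) := fun g => by rw [hk']; rfl
  have hcj' : ∀ g, (c k : G → ℂ) g = conj ((c k' : G → ℂ) g) := fun g => by rw [hcj]; simp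
  have hkk : k' ≠ k := fun e => by
    obtain ⟨g, hg⟩ := (fsInd_eq_zero_iff (c k).2).1 hν
    exact hg (Complex.conj_eq_iff_im.1 (by rw [← hcj, e]))
  have hk0 : k' ≠ 0 := fun e => k0 (hc.inj (Subtype.ext (funext fun g => by
    rw [hcj' g, e, hc.zero_apply, map_one])))
  by_cases hki : k' = i
  · subst hki
    have e1 := hc.inner (Pi.single k' 1 - Pi.single k 1) (Pi.single k (y j) - Pi.single j (y k))
    have e2 : ∀ (a b : Fin 5) (s t : ℤ) (g : G), cmb c (Pi.single a s - Pi.single b t) g =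
        s * (c a : G → ℂ) g - t * (c b : G → ℂ) g := fun a b s t g => by
      simp [cmb_apply, sub_mul, Finset.sum_sub_distrib, Pi.single_apply]
    rw [classInner, Finset.sum_eq_zero fun g _ => by
      rw [e2, e2]
      by_cases hg : 2 ∣ orderOf g
      · rw [hcj' g, hsing g hg]; simp
      · rw [hw g hg]; simp, mul_zero] at e1
    have e3 : ∑ l, (Pi.single k' 1 - Pi.single k 1 : Fin 5 → ℤ) l *
        (Pi.single k (y j) - Pi.single j (y k) : Fin 5 → ℤ) l = 0 := by exact_mod_cast e1.symm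
    simp [sub_mul, Finset.sum_sub_distrib, Pi.single_apply, ki.symm, ji.symm, jk.symm] at e3
    rw [e3] at hoj
    exact absurd hoj (by decide)
  · have e1 := hcj 1
    rw [← coe_charDegree_irr (c k), map_natCast, coe_charDegree_irr,
      hreg k k0 ki 1 not_dvd_orderOf_one, hreg k' hk0 hki 1 not_dvd_orderOf_one] at e1
    have e2 : y k' = y k := by exact_mod_cast mul_right_cancel₀ hφ e1
    exact Int.not_even_iff_odd.2 (ho k' hk0 hki hkk) (e2 ▸ he)

end Cfsg.Agent.K5T
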