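import Mathlib
import Cfsg.Agent.K5T.Bas
import Cfsg.Agent.S4710
import Cfsg.Agent.S0972
import Cfsg.Agent.S0944
import Cfsg.Agent.S4652

set_option autoImplicit false

namespace Cfsg.Agent.K5T

open Subgroup Cfsg Cfsg.Agent.Block Cfsg.Agent.Char Cfsg.Agent.TrP

variable {G : Type*} [Group G] [Finite G] {M : Ideal AlgInt}

/-- `TrP.exists_en` gives `c : Fin 5 → Irr`, take an involution `x`; `En.orth` (with the regular
element `1`) gives `∑ χ(1) * conj χ(x) = 0`.  `χ(x)` is an integer `≡ χ(1) mod 2` (`S0944.result`),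
so this is a sum of five odd integers, not zero. -/
theorem not_five_of_odd (hM : IsPModular 2 M) (h2 : 2 ∣ Nat.card G)
    (hodd : ∀ χ ∈ principalBlock M G, Odd (charDegree (χ : G → ℂ))) :
    Nat.card (principalBlock M G) ≠ 5 := by
  intro h5
  obtain ⟨c, hc⟩ := exists_en hM (n := 4) h5
  obtain ⟨x, hx⟩ := exists_prime_orderOf_dvd_card' 2 h2
  have ho := hc.orth hM (x := 1) (y := x) (by simp) (by rw [hx])
  choose v hv hv' using fun i => S0944.result (c i) x hx
  have hd : ∀ i, Odd ((charDegree (c i : G → ℂ) : ℤ) * v i) := fun i => by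
    have h1 : Odd (charDegree (c i : G → ℂ) : ℤ) := by
      exact_mod_cast hodd (c i) (hc.rng ▸ Set.mem_range_self i)
    refine h1.mul ?_
    obtain ⟨k, hk⟩ := hv' i
    obtain ⟨l, hl⟩ := h1
    exact ⟨l - k, by omega⟩
  have hs : ∑ i, (charDegree (c i : G → ℂ) : ℤ) * v i = 0 := by
    have : ((∑ i, (charDegree (c i : G → ℂ) : ℤ) * v i : ℤ) : ℂ) = 0 := by
      rw [← ho]
      push_cast
      refine Finset.sum_congr rfl fun i _ => ?_
      rw [hv i, coe_charDegree_irr]
      simp
    exact_mod_cast this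
  rw [Fin.sum_univ_five] at hs
  obtain ⟨a0, h0⟩ := hd 0
  obtain ⟨a1, h1⟩ := hd 1
  obtain ⟨a2, h2⟩ := hd 2
  obtain ⟨a3, h3⟩ := hd 3
  obtain ⟨a4, h4⟩ := hd 4
  omega

/-- The infimum in `blockHeight` is `0` (trivial character, `irrOne_mem_principal`), so
`(charDegree χ).factorization 2 = 0`, and the degree is nonzero. -/
theorem odd_of_height (hM : IsPModular 2 M)
    (h : ∀ χ ∈ principalBlock M G, blockHeight 2 (principalBlock M G) (χ : G → ℂ) = 0) :
    ∀ χ ∈ principalBlock M G, Odd (charDegree (χ : G → ℂ)) := by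
  intro χ hχ
  have h1 := h χ hχ
  have h0 : sInf ((fun ψ : IrrCharacter G => (charDegree (ψ : G → ℂ)).factorization 2) ''
      principalBlock M G) = 0 := by
    refine Nat.sInf_eq_zero.2 (Or.inl ⟨irrOne G, irrOne_mem_principal hM, ?_⟩)
    have : charDegree (irrOne G : G → ℂ) = 1 := charDegree_const_one
    simp only [this, Nat.factorization_one, Finsupp.coe_zero, Pi.zero_apply]
  rw [blockHeight, h0, Nat.sub_zero] at h1
  rw [← Nat.not_even_iff_odd, even_iff_two_dvd]
  intro hd
  have := (Nat.prime_two.dvd_iff_one_le_factorization (Block.charDegree_ne_zero χ.2)).1 hd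
  omega

/-- defect `2` (`card_defectGroup`, `S4652.result`), `S4710.result` gives heights `≤ 2 - 2`. -/
theorem not_five_of_four (hM : IsPModular 2 M) (P : Sylow 2 G)
    (h4 : Nat.card (P : Subgroup G) = 4) : Nat.card (principalBlock M G) ≠ 5 := by
  classical
  have := Fintype.ofFinite G
  have hD := (S4652.result 2 M hM (P : Subgroup G)).2 ⟨P, rfl⟩
  have hc := card_defectGroup hM isPBlock_principal hD
  have hd : blockDefect 2 (principalBlock M G) = 2 :=
    Nat.pow_right_injective (le_refl 2) (by simp only; rw [← hc, h4])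
  refine not_five_of_odd hM ?_ (odd_of_height hM fun χ hχ => ?_)
  · exact (show 2 ∣ 4 by norm_num).trans (h4 ▸ Subgroup.card_subgroup_dvd_card (P : Subgroup G))
  · have := ((S4710.result 2 M hM _ isPBlock_principal 2 hd).2 χ hχ).2 le_rfl
    omega

/-- `S0972.result` (Reynolds) with the defect group `P` (`S4652.result`). -/
theorem not_five_of_normal (hM : IsPModular 2 M) (P : Sylow 2 G) (h1 : (P : Subgroup G) ≠ ⊥)
    (hab : IsMulCommutative (P : Subgroup G)) (hn : (P : Subgroup G).Normal) :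
    Nat.card (principalBlock M G) ≠ 5 := by
  classical
  have := Fintype.ofFinite G
  have hD := (S4652.result 2 M hM (P : Subgroup G)).2 ⟨P, rfl⟩
  refine not_five_of_odd hM ?_ (odd_of_height hM
    ((S0972.result 2 M hM _ isPBlock_principal (P : Subgroup G) hD).1 fun a ha c hc =>
      congrArg Subtype.val (hab.is_comm.comm (⟨a, ha⟩ : (P : Subgroup G)) ⟨c, hc⟩)))
  obtain ⟨k, hk⟩ := IsPGroup.iff_card.1 P.isPGroup'
  have hk0 : k ≠ 0 := by
    rintro rfl
    exact h1 (Subgroup.card_eq_one.1 (by simpa using hk))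
  exact (hk ▸ dvd_pow_self 2 hk0 : 2 ∣ Nat.card (P : Subgroup G)).trans
    (Subgroup.card_subgroup_dvd_card (P : Subgroup G))

end Cfsg.Agent.K5T
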