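import Mathlib
import Cfsg.Agent.K5T.Def
import Cfsg.Agent.Transfer.Control

set_option autoImplicit false

namespace Cfsg.Agent.K5T

open Subgroup Cfsg Cfsg.Agent.Block Cfsg.Agent.Char Cfsg.Agent.TrP

variable {G : Type*} [Group G] [Finite G]

omit [Finite G] in
theorem tu_four {y : G} (h1 : y ^ 4 = 1) (h2 : y * y ≠ 1) : orderOf y = 4 :=
  haveI := Fact.mk Nat.prime_two
  orderOf_eq_prime_pow (p := 2) (n := 1) (by rwa [pow_one, sq]) h1

theorem tu_class (y : G) :
    {x | ∃ g : G, g * y * g⁻¹ = x}.ncard * Nat.card (centralizer ({y} : Set G)) = Nat.card G := by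
  have h1 := MulAction.index_stabilizer (ConjAct G) y
  have h2 := (MulAction.stabilizer (ConjAct G) y).index_mul_card
  rw [h1, ← nat_card_centralizer_nat_card_stabilizer] at h2
  exact h2

/-- counting in the `2`-group itself -/
theorem tu_count (hc : ∀ s : G, s * s = 1 → s ∈ center G) (h4 : ∀ x : G, x ^ 4 = 1)
    (hu : ∀ y y' : G, y * y ≠ 1 → y * y = y' * y' → ∃ g, g * y * g⁻¹ = y') : IsMulCommutative G := by
  classical
  have := Fintype.ofFinite G
  let A : Subgroup G :=
    { carrier := {x | x * x = 1}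
      one_mem' := one_mul 1
      mul_mem' := fun {a b} ha hb => by
        change a * b * (a * b) = 1
        rw [mul_assoc, ← mul_assoc b, mem_center_iff.1 (hc a ha) b, mul_assoc, ← mul_assoc a a, ha, hb, one_mul]
      inv_mem' := fun {a} ha => by
        change a⁻¹ * a⁻¹ = 1
        rw [← mul_inv_rev, ha, inv_one] }
  let S := Finset.univ.filter fun x : G => ¬ x * x = 1
  let T := (Finset.univ.filter fun x : G => x * x = 1).erase 1
  have cA : (Finset.univ.filter fun x : G => x * x = 1).card = Nat.card A := by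
    rw [Nat.card_eq_fintype_card, Fintype.card_subtype]
    congr 1
  have cT : T.card = Nat.card A - 1 := by rw [Finset.card_erase_of_mem (by simp), cA]
  have cS : Nat.card A + S.card = Nat.card G := by
    rw [← cA, Finset.card_filter_add_card_filter_not, Nat.card_eq_fintype_card, Finset.card_univ]
  have fb : ∀ t ∈ T, (S.filter fun x => x * x = t).card * (2 * Nat.card A) ≤ Nat.card G := fun t _ => by
    rcases (S.filter fun x => x * x = t).eq_empty_or_nonempty with e | ⟨y, hy⟩
    · simp [e]
    simp only [S, Finset.mem_filter, Finset.mem_univ, true_and] at hy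
    rw [← tu_class y]
    refine Nat.mul_le_mul ?_ ?_
    · rw [← Set.ncard_coe_finset]
      refine Set.ncard_le_ncard fun x hx => hu y x hy.1 ?_
      simp only [S, Finset.coe_filter, Set.mem_setOf_eq] at hx
      rw [hy.2, hx.2]
    · have le : A ≤ centralizer {y} := fun a ha =>
        mem_centralizer_singleton_iff.2 (mem_center_iff.1 (hc a ha) y).symm
      obtain ⟨k, hk⟩ := card_dvd_of_le le
      have k1 : k ≠ 1 := fun e => hy.1 ((eq_of_le_of_card_ge le (by rw [hk, e, mul_one])).ge
        (mem_centralizer_singleton_iff.2 rfl))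
      have k0 : k ≠ 0 := fun e => Nat.card_pos.ne' (by rw [hk, e, mul_zero])
      rw [hk, mul_comm]
      exact Nat.mul_le_mul_left _ (by omega)
  have sm := Finset.sum_le_sum fb
  have cf : S.card = ∑ t ∈ T, (S.filter fun x => x * x = t).card :=
    Finset.card_eq_sum_card_fiberwise (f := fun x => x * x) fun x hx => by
      simp only [S, T, Finset.coe_filter, Finset.mem_univ, true_and, Set.mem_setOf_eq, Finset.coe_erase,
        Set.mem_diff, Set.mem_singleton_iff] at hx ⊢
      exact ⟨by rw [← h4 x]; simp [pow_succ, mul_assoc], hx⟩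
  rw [← Finset.sum_mul, ← cf, Finset.sum_const, smul_eq_mul, cT] at sm
  have hA : A = ⊤ := by
    have e := A.card_mul_index
    have n0 : 0 < Nat.card A := Nat.card_pos
    refine index_eq_one.1 ?_
    by_contra c
    have i0 := A.index_ne_zero_of_finite
    obtain ⟨j, hj⟩ : ∃ j, A.index = j + 2 := ⟨A.index - 2, by omega⟩
    obtain ⟨n, hn⟩ : ∃ n, Nat.card A = n + 1 := ⟨Nat.card A - 1, by omega⟩
    rw [← e, hj, hn] at cS sm
    rw [show S.card = (n + 1) * (j + 1) by nlinarith, Nat.add_sub_cancel] at sm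
    nlinarith [Nat.zero_le (n * n * j), Nat.zero_le (n * j)]
  exact ⟨⟨fun a b => mem_center_iff.1 (hc b (hA.ge (mem_top b))) a⟩⟩

/-- `z = y²` is an involution centralized by `P`; `y' ` has order 4 too; `y' = g y g⁻¹` gives
`g ∈ C = C(z)`.  `C` has a normal 2-complement `O`, `P ≤ C` is a Sylow subgroup, `C = O P`; write
`g = o h`, `h ∈ P`; then `h y h⁻¹` and `y'` are elements of `P` with the same image in `C / O`, and
`P ⊓ O = 1`. -/
theorem T11.up {P : Sylow 2 G} (h : T11 P) : UP (P : Subgroup G) := by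
  intro y hy y' hy' o e hz
  have := Fact.mk Nat.prime_two
  have z1 : y * y ≠ 1 := fun c => by
    have := orderOf_dvd_of_pow_eq_one ((sq y).trans c)
    rw [o] at this
    exact absurd this (by decide)
  have oz : orderOf (y * y) = 2 := orderOf_eq_prime (by rw [← h.exp y hy]; simp [pow_succ, mul_assoc]) z1
  obtain ⟨g, hg⟩ := isConj_iff.1 (h.four y y' o (tu_four (h.exp y' hy') (e ▸ z1)))
  have gC : g ∈ centralizer {y * y} := mem_centralizer_singleton_iff.2 (mul_inv_eq_iff_eq_mul.1 (by
    rw [show g * (y * y) * g⁻¹ = g * y * g⁻¹ * (g * y * g⁻¹) by group, hg, e]))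
  have PC : (P : Subgroup G) ≤ centralizer {y * y} := fun s hs =>
    mem_centralizer_singleton_iff.2 (mem_centralizer_iff.1 hz s hs)
  obtain ⟨v, hv, e'⟩ := Transfer.HasNormalPComplement.conj_eq (h.np _ oz) (P.subtype PC) ⟨g, gC⟩
  exact ⟨v, hv, (congrArg Subtype.val (e' ⟨y, PC hy⟩ hy (by
    change g * y * g⁻¹ ∈ (P : Subgroup G)
    rwa [hg]))).trans hg⟩

/-- All involutions of `P` central.  `A = {x ∈ P | x² = 1}` is a subgroup of order `n`, central in
`P`, `q = #P`.  Each `y ∈ P - A` has order 4, `y² ∈ A - {1}`, and by `UP` the elements of `P` with a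
given square `t ∈ A - {1}` form at most one `P`-class, of size `q / #C_P(y) ≤ q / (2n)`
(`C_P(y) ≥ A ⊔ ⟨y⟩`).  So `q - n ≤ (n - 1) q / (2n) < q / 2`, so `q < 2n`, `A = P` is abelian. -/
theorem T11.not_cen {P : Sylow 2 G} (h : T11 P)
    (hc : ∀ s ∈ (P : Subgroup G), s * s = 1 → s ∈ centralizer ((P : Subgroup G) : Set G)) :
    False := by
  have k : ∀ x : (P : Subgroup G), x ^ 4 = 1 := fun x => Subtype.ext (h.exp x x.2)
  refine h.nab (tu_count (fun s e => mem_center_iff.2 fun g => Subtype.ext
    (mem_centralizer_iff.1 (hc s s.2 (congrArg Subtype.val e)) g g.2)) k fun y y' n e => ?_)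
  obtain ⟨g, hg, e'⟩ := h.up y y.2 y' y'.2 (tu_four (h.exp y y.2) fun c => n (Subtype.ext c))
    (congrArg Subtype.val e) (hc _ (mul_mem y.2 y.2) (by rw [← h.exp y y.2]; simp [pow_succ, mul_assoc]))
  exact ⟨⟨g, hg⟩, Subtype.ext e'⟩

end Cfsg.Agent.K5T
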