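import Mathlib
import Cfsg.Agent.K5T.TU

set_option autoImplicit false

namespace Cfsg.Agent.K5T

open Subgroup Cfsg Cfsg.Agent.Block Cfsg.Agent.Char Cfsg.Agent.TrP

variable {G : Type*} [Group G] [Finite G]

open Cfsg.Agent.PLocal.Amb

theorem t2_odd {P : Sylow 2 G} {K B : Subgroup G} {z w : G} (h1 : (P : Subgroup G) ≤ K)
    (h2 : (P : Subgroup G) ≤ centralizer ({z} : Set G)) (h3 : ∀ s, (∃ g ∈ K, g * z * g⁻¹ = s) ↔ z⁻¹ * s ∈ B)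
    (hw : w ∈ B) (w2 : orderOf w = 2) : False := by
  let _ : MulAction K G := MulAction.compHom G (MulAut.conj.comp K.subtype)
  have e1 : MulAction.stabilizer K z = (centralizer ({z} : Set G)).subgroupOf K := by
    ext g
    rw [mem_subgroupOf, mem_centralizer_singleton_iff, ← mul_inv_eq_iff_eq_mul]
    rfl
  have e2 : MulAction.orbit K z = (z * ·) '' (B : Set G) := by
    ext s
    exact ⟨fun ⟨g, e⟩ => ⟨_, (h3 s).1 ⟨g, g.2, e⟩, mul_inv_cancel_left _ _⟩, fun ⟨b, hb, e⟩ =>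
      let ⟨g, hg, e'⟩ := (h3 s).2 (by rw [← e]; simpa using hb); ⟨⟨g, hg⟩, e'⟩⟩
  have e3 := MulAction.index_stabilizer K z
  rw [e1, e2, Set.ncard_image_of_injective _ (mul_right_injective z)] at e3
  refine (isSyl_of_le P h1).not_dvd_relIndex (Dvd.dvd.trans ?_ (relIndex_dvd_of_le_left K h2))
  rw [relIndex, e3]
  exact w2 ▸ orderOf_dvd_natCard B hw

theorem T11.t2_one {P : Sylow 2 G} (h : T11 P) {A : Subgroup G} (hA : ∀ x, x ∈ A ↔ x ∈ (P : Subgroup G) ∧ x * x = 1)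
    (ab : ∀ s ∈ A, ∀ t ∈ A, s * t = t * s) {z : G} (z2 : orderOf z = 2)
    (hz : (P : Subgroup G) ≤ centralizer ({z} : Set G)) {t : G} (ht : t ∈ A) (t1 : t ≠ 1) :
    ∃ g ∈ 𝐍[A], g * t * g⁻¹ = z := by
  obtain ⟨g, e⟩ := isConj_iff.1 (h.inv t z (orderOf_eq_prime (by rw [sq, ((hA t).1 ht).2]) t1) z2)
  obtain ⟨c, hc, k⟩ := (isSyl_of_le P hz).exists_cj_le (isPGroup_cj g (P.2.to_le fun x hx => ((hA x).1 hx).1))
    (by rw [← e, centralizer_singleton_conj]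
        exact cj_mono g fun x hx => mem_centralizer_singleton_iff.2 (ab x hx t ht))
  rw [← cj_mul] at k
  refine ⟨c * g, mem_normalizer_of_cj_le (cj_le_iff_forall.2 fun x hx =>
    (hA _).2 ⟨cj_le_iff_forall.1 k x hx, ?_⟩), ?_⟩
  · rw [conj_mul, ((hA x).1 hx).2]
    simp
  · rw [show c * g * t * (c * g)⁻¹ = c * (g * t * g⁻¹) * c⁻¹ by group, e, mem_centralizer_singleton_iff.1 hc,
      mul_inv_cancel_right]

theorem T11.t2_two {P : Sylow 2 G} (h : T11 P) {A : Subgroup G} (hA : ∀ x, x ∈ A ↔ x ∈ (P : Subgroup G) ∧ x * x = 1)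
    (ab : ∀ s ∈ A, ∀ t ∈ A, s * t = t * s) (PA : (P : Subgroup G) ≤ 𝐍[A]) {z : G} (z2 : orderOf z = 2)
    (hz : (P : Subgroup G) ≤ centralizer ({z} : Set G)) {u : G} (hu : u ∈ 𝐍[A]) (ht : u * u ∈ A) (t1 : u * u ≠ 1) :
    ∃ g ∈ 𝐍[A], g * u * g⁻¹ ∈ (P : Subgroup G) ∧ g * u * g⁻¹ * (g * u * g⁻¹) = z := by
  obtain ⟨g, hg, e⟩ := h.t2_one hA ab z2 hz ht t1
  rw [← conj_mul] at e
  obtain ⟨c, hc, k⟩ := (isSyl_of_le P (le_inf PA hz)).exists_cj_le (R := zpowers (g * u * g⁻¹))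
    (isPGroup_zpowers ⟨2, by rw [show 2 ^ 2 = 2 * 2 from rfl, pow_mul, sq (g * u * g⁻¹), e, ← z2, pow_orderOf_eq_one]⟩)
    (zpowers_le.2 (mem_inf.2 ⟨mul_mem (mul_mem hg hu) (inv_mem hg),
      mem_centralizer_singleton_iff.2 (e ▸ (mul_assoc _ _ _).symm)⟩))
  have e2 : c * g * u * (c * g)⁻¹ = c * (g * u * g⁻¹) * c⁻¹ := by group
  refine ⟨c * g, mul_mem (mem_inf.1 hc).1 hg, e2 ▸ k (conj_mem_cj c (mem_zpowers _)), ?_⟩
  rw [e2, conj_mul, e, mem_centralizer_singleton_iff.1 hc.2, mul_inv_cancel_right]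

/-- Suppose all involutions of `P` commute.  `A = {x ∈ P | x² = 1}` is an elementary abelian subgroup,
`P ≤ H = N_G(A)`.  Fix an involution `z ∈ Z(P)` (`z ∈ A`).
(1) Every `t ∈ A - {1}` is `H`-conjugate to `z`: `t = g⁻¹ z g`... `A^g` and `A` both lie in `C(z)`
(where `z = t^g`); `P` is Sylow in `C(z)`, so `A^(g c) ≤ P` for some `c ∈ C(z)`, so `A^(g c) = A`
(elements of square 1 in `P`, same order).
(2) If `u ∈ H` has order 4 and `u² ∈ A` then `u` is `H`-conjugate to some `u' ∈ P` with `u'² = z`: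
by (1) assume `u² = z`; `u ∈ H ⊓ C(z) ≥ P`, `P` Sylow there.
(3) By `not_cen` some `y₀ ∈ P` does not centralize `A`; it is not in `A`, so has order 4 and
`y₀² ∈ A`; by (2) get `y ∈ P`, `y² = z`, `y ∉ C(A)`.  For `a ∈ A`, `y a ∈ P - A` has order 4; by (2)
and `T11.up` it is `H`-conjugate to `y`.
(4) `K = {g ∈ H | g y g⁻¹ ∈ y A}` is a subgroup containing `P` (`P/A` has exponent 2, so is abelian).
The `K`-class of `z = y²` is `S = {(y a)² | a ∈ A}` by (3).  Its size is `[K : K ⊓ C(z)]`, odd as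
`P ≤ K ⊓ C(z)`.  But `(y a)² = z * (y⁻¹ a y) a`, so with `a₀ ∈ A` not commuting with `y` and
`w = (y⁻¹ a₀ y) a₀ ≠ 1`, `s ↦ s w` is a fixed point free involution of `S`: `#S` is even. -/
theorem T11.ncm {P : Sylow 2 G} (h : T11 P) :
    ∃ s ∈ (P : Subgroup G), ∃ t ∈ (P : Subgroup G), s * s = 1 ∧ t * t = 1 ∧ s * t ≠ t * s := by
  by_contra hn
  push Not at hn
  obtain ⟨A, hA⟩ : ∃ A : Subgroup G, ∀ x, x ∈ A ↔ x ∈ (P : Subgroup G) ∧ x * x = 1 :=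
    ⟨⟨⟨⟨{x | x ∈ (P : Subgroup G) ∧ x * x = 1}, fun {a b} ha hb => ⟨mul_mem ha.1 hb.1, by
      rw [mul_assoc, ← mul_assoc b, ← hn a ha.1 b hb.1 ha.2 hb.2, mul_assoc, hb.2, mul_one, ha.2]⟩⟩,
      one_mem _, mul_one _⟩, fun ha => ⟨inv_mem ha.1, by rw [← mul_inv_rev, ha.2, inv_one]⟩⟩, fun _ => Iff.rfl⟩
  have ab : ∀ s ∈ A, ∀ t ∈ A, s * t = t * s := fun s hs t ht =>
    hn s ((hA s).1 hs).1 t ((hA t).1 ht).1 ((hA s).1 hs).2 ((hA t).1 ht).2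
  have PA : (P : Subgroup G) ≤ 𝐍[A] := fun g hg => mem_normalizer_of_cj_le (cj_le_iff_forall.2 fun x hx =>
    (hA _).2 ⟨mul_mem (mul_mem hg ((hA x).1 hx).1) (inv_mem hg), by rw [conj_mul, ((hA x).1 hx).2]; simp⟩)
  have sq2 : ∀ x ∈ (P : Subgroup G), x * x ∈ A := fun x hx =>
    (hA _).2 ⟨mul_mem hx hx, by rw [← h.exp x hx]; simp only [pow_succ, pow_zero, one_mul, mul_assoc]⟩
  obtain ⟨a₀, ha₀, y₀, hy₀, nc⟩ : ∃ a ∈ A, ∃ y ∈ (P : Subgroup G), y * a ≠ a * y := by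
    by_contra k
    push Not at k
    exact h.not_cen fun s hs s2 => mem_centralizer_iff.2 (k s ((hA s).2 ⟨hs, s2⟩))
  obtain ⟨⟨z, zA, zC⟩, z1⟩ := ne_bot_iff_exists_ne_one.1 (inf_centralizer_ne_bot P.2
    (P.2.to_le fun x hx => ((hA x).1 hx).1) PA fun e => nc (by rw [mem_bot.1 (e.le ha₀)]; simp))
  replace z1 : z ≠ 1 := fun e => z1 (Subtype.ext e)
  have z2 : orderOf z = 2 := orderOf_eq_prime (by rw [sq, ((hA z).1 zA).2]) z1
  have hz : (P : Subgroup G) ≤ centralizer ({z} : Set G) := fun g hg => mem_centralizer_singleton_iff.2 (zC g hg)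
  obtain ⟨g₀, hg₀, hy, y2⟩ := h.t2_two hA ab PA z2 hz (PA hy₀) (sq2 _ hy₀) fun e =>
    nc (ab _ ((hA _).2 ⟨hy₀, e⟩) _ ha₀)
  have ha := conj_mem_of_mem_normalizer hg₀ ha₀
  replace nc : g₀ * y₀ * g₀⁻¹ * (g₀ * a₀ * g₀⁻¹) ≠ g₀ * a₀ * g₀⁻¹ * (g₀ * y₀ * g₀⁻¹) := by
    rw [conj_mul, conj_mul]
    simpa using nc
  generalize g₀ * y₀ * g₀⁻¹ = y at hy y2 nc
  generalize g₀ * a₀ * g₀⁻¹ = a at ha nc
  have y4 : orderOf y = 4 := orderOf_eq_prime_pow (p := 2) (n := 1) (by simpa [sq, y2] using z1) (h.exp y hy)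
  have yA : ∀ b ∈ A, y⁻¹ * b * y ∈ A := fun b hb => inv_conj_mem_of_mem_normalizer (PA hy) hb
  have e3 : ∀ b, z⁻¹ * (y * b * (y * b)) = y⁻¹ * b * y * b := fun b => by
    rw [← y2]
    group
  let K : Subgroup G := ⟨⟨⟨{g | g ∈ 𝐍[A] ∧ y⁻¹ * (g * y * g⁻¹) ∈ A}, fun {g k} hg hk => ⟨mul_mem hg.1 hk.1, by
      convert mul_mem hg.2 (conj_mem_of_mem_normalizer hg.1 hk.2) using 1
      group⟩⟩, one_mem _, by simp⟩, fun {g} hg => ⟨inv_mem hg.1, by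
      convert inv_mem (inv_conj_mem_of_mem_normalizer hg.1 hg.2) using 1
      group⟩⟩
  let f : A →* G := MonoidHom.mk' (fun b => y⁻¹ * b * y * b) fun b c => by
    rw [coe_mul, Commute.mul_mul_mul_comm (ab _ b.2 _ (yA _ c.2))]
    group
  refine t2_odd (P := P) (K := K) (B := f.range) (w := y⁻¹ * a * y * a) (fun g hg => ⟨PA hg, ?_⟩) hz
    (fun s => ⟨?_, ?_⟩) ⟨⟨a, ha⟩, rfl⟩ (orderOf_eq_prime (by rw [sq, ((hA _).1 (mul_mem (yA a ha) ha)).2]) fun e => nc ?_)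
  · convert mul_mem (mul_mem (sq2 _ (inv_mem hy)) (sq2 _ (mul_mem hy hg))) (sq2 _ (inv_mem hg)) using 1
    group
  · rintro ⟨g, hg, rfl⟩
    refine ⟨⟨_, hg.2⟩, (e3 _).symm.trans ?_⟩
    rw [mul_inv_cancel_left, conj_mul, y2]
  · rintro ⟨⟨b, hb⟩, e⟩
    have hyb := mul_mem hy ((hA b).1 hb).1
    obtain ⟨g, hg, h1, h2⟩ := h.t2_two hA ab PA z2 hz (PA hyb) (sq2 _ hyb) fun e => z1 (by
      rw [← y2, ((hA y).1 ((mul_mem_cancel_right hb).1 ((hA _).2 ⟨hyb, e⟩))).2])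
    obtain ⟨k, hk, e'⟩ := h.up y hy _ h1 y4 (y2.trans h2.symm) (y2 ▸ zC)
    have e4 : g⁻¹ * k * y * (g⁻¹ * k)⁻¹ = y * b := by
      rw [show g⁻¹ * k * y * (g⁻¹ * k)⁻¹ = g⁻¹ * (k * y * k⁻¹) * g by group, e']
      group
    refine ⟨g⁻¹ * k, ⟨mul_mem (inv_mem hg) (PA hk), by rwa [e4, inv_mul_cancel_left]⟩, mul_left_cancel (a := z⁻¹) ?_⟩
    rw [← e, ← y2, ← conj_mul, e4, y2, e3]
    rfl
  · rw [mul_eq_one_iff_eq_inv, inv_eq_of_mul_eq_one_right ((hA a).1 ha).2, mul_assoc, inv_mul_eq_iff_eq_mul] at e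
    exact e.symm

end Cfsg.Agent.K5T
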