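import Mathlib
import Cfsg.Agent.K5T.Def
import Cfsg.Agent.Grp.Cores
import Cfsg.Agent.Transfer.PCompl

set_option autoImplicit false

namespace Cfsg.Agent.K5T

open Subgroup Cfsg Cfsg.Agent.Block Cfsg.Agent.Char Cfsg.Agent.TrP

variable {G : Type*} [Group G] [Finite G]

omit [Finite G] in
theorem t3_map {H : Type*} [Group H] {P : Sylow 2 G} {Q : Sylow 2 H} (f : H →* G) (hf : Function.Injective f)
    (e : (Q : Subgroup H).map f = P) (h : T4 P) : T4 Q := by
  have m : ∀ {x}, x ∈ (Q : Subgroup H) → f x ∈ (P : Subgroup G) := fun hx => e ▸ mem_map_of_mem f hx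
  have s : ∀ {x}, x ∈ (P : Subgroup G) → ∃ y ∈ (Q : Subgroup H), f y = x := fun hx => mem_map.1 (e.symm ▸ hx)
  refine ⟨fun u hu => (h.big _ (m hu)).trans_eq ?_, fun y hy y' hy' h4 h2 hc => ?_, ?_⟩
  · rw [cc, cc, ← card_map_of_injective (K := (Q : Subgroup H) ⊓ _) hf]
    congr 2
    ext x
    simp only [mem_inf, mem_map, mem_centralizer_singleton_iff]
    refine ⟨fun ⟨h1, h2⟩ => ?_, ?_⟩
    · obtain ⟨y, hy, rfl⟩ := s h1
      exact ⟨y, ⟨hy, hf (by rwa [map_mul, map_mul])⟩, rfl⟩
    · rintro ⟨y, ⟨h1, h2⟩, rfl⟩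
      exact ⟨m h1, by rw [← map_mul, h2, map_mul]⟩
  · obtain ⟨g, hg, k⟩ := h.up _ (m hy) _ (m hy') ((orderOf_injective f hf y).trans h4) (by rw [← map_mul, h2, map_mul])
      fun x hx => by
        obtain ⟨z, hz, rfl⟩ := s hx
        rw [← map_mul, ← map_mul, hc z hz, map_mul]
    obtain ⟨z, hz, rfl⟩ := s hg
    exact ⟨z, hz, hf (by rwa [map_mul, map_mul, map_inv])⟩
  · obtain ⟨a, ha, b, hb, h1, h2, h3⟩ := h.ncm
    obtain ⟨a, ha', rfl⟩ := s ha
    obtain ⟨b, hb', rfl⟩ := s hb
    exact ⟨a, ha', b, hb', hf (by rwa [map_mul, map_one]), hf (by rwa [map_mul, map_one]),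
      fun k => h3 (by rw [← map_mul, k, map_mul])⟩

theorem t3_inv {X : Type*} [Group X] [Finite X] (hO : pPrimeCore 2 X = ⊥) {K : Subgroup X} (hK : K.Normal) (h0 : K ≠ ⊥) :
    ∃ r ∈ K, orderOf r = 2 := by
  obtain ⟨r, hr⟩ := exists_prime_orderOf_dvd_card' (G := K) 2 (by_contra fun k =>
    h0 (le_bot_iff.1 (hO ▸ Grp.le_pPrimeCore hK (Nat.prime_two.coprime_iff_not_dvd.2 k).symm)))
  exact ⟨r, r.2, (orderOf_coe r).trans hr⟩

/-- `N` minimal normal: even order (`O(G) = 1`), so it contains all involutions (`h.inv`), in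
particular `s, t`, and `s t`, which has order 4 (`h.exp`; `(s t)² = 1` would give `s t = t s`), so all
elements of order 4 (`h.four`), so `P ≤ N`.  `N` is not abelian, so not a 2-group (a minimal normal
2-subgroup is abelian: `Z(N) ≠ 1` is characteristic), so `O₂(N) = 1 = O(N)`.  Let `K` be minimal
normal in `N`; even order.  If `K^g ≠ K`, then `K^g` centralizes an involution `r ∈ K`, so has a normal
2-complement (`h.np`, `Transfer.HasNormalPComplement.subgroup`), which is characteristic in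
`K^g ⊴ N` of odd order, so trivial; so `K^g ≤ O₂(N) = 1`, contradiction.  So `K ⊴ G`, `K = N` is
simple. -/
theorem T11.simple {P : Sylow 2 G} (h : T11 P) (hO : pPrimeCore 2 G = ⊥)
    (hn : ∃ s ∈ (P : Subgroup G), ∃ t ∈ (P : Subgroup G), s * s = 1 ∧ t * t = 1 ∧ s * t ≠ t * s) :
    ∃ N : Subgroup G, N.Normal ∧ IsSimpleGroup N ∧ ¬ IsMulCommutative N ∧ (P : Subgroup G) ≤ N ∧
      ∀ t : N, orderOf t = 2 → NP t := by
  obtain ⟨s, hs, t, ht, s2, t2, st⟩ := hn
  have : Nontrivial G := ⟨_, _, st⟩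
  obtain ⟨N, hN, N0, hmin⟩ := Grp.exists_minNormal G
  have cj : ∀ {a b : G}, a ∈ N → IsConj a b → b ∈ N := fun ha k => by
    obtain ⟨c, rfl⟩ := isConj_iff.1 k
    exact hN.conj_mem _ ha c
  obtain ⟨r, hr, r2⟩ := t3_inv hO hN N0
  have i2 : ∀ x : G, orderOf x = 2 → x ∈ N := fun x hx => cj hr (h.inv _ _ r2 hx)
  have sN := i2 s (orderOf_eq_prime (by rwa [sq]) (by rintro rfl; simp at st))
  have tN := i2 t (orderOf_eq_prime (by rwa [sq]) (by rintro rfl; simp at st))
  have o4 : ∀ x ∈ (P : Subgroup G), x ^ 2 ≠ 1 → orderOf x = 4 := fun x hx k =>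
    orderOf_eq_prime_pow (p := 2) (n := 1) (by rwa [pow_one]) (h.exp x hx)
  have st4 := o4 _ (mul_mem hs ht) fun k => st (by
    rw [sq, mul_eq_one_iff_eq_inv, mul_inv_rev, inv_eq_of_mul_eq_one_left s2, inv_eq_of_mul_eq_one_left t2] at k
    exact k)
  have PN : (P : Subgroup G) ≤ N := fun x hx => by
    by_cases k : x ^ 2 = 1
    · by_cases k1 : x = 1
      exacts [k1 ▸ one_mem N, i2 x (orderOf_eq_prime k k1)]
    · exact cj (mul_mem sN tN) (h.four _ _ st4 (o4 x hx k))
  have nc : ¬ IsMulCommutative N := fun c => st (congrArg Subtype.val (c.is_comm.comm ⟨s, sN⟩ ⟨t, tN⟩))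
  have np : ∀ t : N, orderOf t = 2 → NP t := fun x hx =>
    Transfer.HasNormalPComplement.of_injective (h.np x ((orderOf_coe x).trans hx))
      ((N.subtype.comp (Subgroup.subtype _)).codRestrict _ fun y => mem_centralizer_singleton_iff.2
        (congrArg Subtype.val (mem_centralizer_singleton_iff.1 y.2)))
      fun a b e => Subtype.ext (N.subtype_injective (congrArg Subtype.val e :))
  have oN : pPrimeCore 2 N = ⊥ := by rw [Grp.pPrimeCore_eq_subgroupOf_of_normal, hO, bot_subgroupOf]
  have o2 : pCore 2 N = ⊥ := by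
    rcases hmin _ (Grp.normal_map_subtype_of_characteristic N (pCore 2 N)) (map_subtype_le _) with k | k
    · exact (map_eq_bot_iff_of_injective _ N.subtype_injective).1 k
    · have p2 : IsPGroup 2 N := k ▸ Grp.map_pCore_isPGroup 2 N.subtype
      have := p2.isNilpotent
      exact absurd (Grp.minNormal_elementaryAbelian N N0 hmin).1 nc
  have := (nontrivial_iff_ne_bot N).2 N0
  obtain ⟨K, hK, K0, kmin⟩ := Grp.exists_minNormal N
  obtain ⟨q, hq, q2⟩ := t3_inv oN hK K0
  have key : ∀ α : MulAut N, K ≤ K.comap α.toMonoidHom := fun α => by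
    refine inf_eq_right.1 ((kmin (K.comap α.toMonoidHom ⊓ K) inferInstance inf_le_right).resolve_left fun k => K0 ?_)
    have c := Transfer.hasNormalPComplement_iff_coprime.1 (Transfer.HasNormalPComplement.of_le (np q q2)
      ((Grp.le_centralizer_of_normal_of_inf_eq_bot _ _ k).trans (centralizer_le (Set.singleton_subset_iff.2 hq))))
    have c1 := Grp.le_pPrimeCore (p := 2) (Grp.normal_map_subtype_of_characteristic (K.comap α.toMonoidHom) (pResidual 2 _))
      (by rwa [card_map_of_injective (subtype_injective _)])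
    rw [oN, le_bot_iff, map_eq_bot_iff_of_injective _ (subtype_injective _), Transfer.pResidual_eq_bot_iff] at c1
    have c2 := Grp.le_pCore inferInstance c1
    rw [o2] at c2
    exact eq_bot_iff.2 fun x hx => by
      obtain ⟨y, rfl⟩ := α.surjective x
      rw [mem_bot.1 (c2 (show y ∈ K.comap α.toMonoidHom from hx)), map_one]
      exact one_mem _
  have : K.Characteristic := characteristic_iff_le_comap.2 key
  obtain rfl : K = ⊤ := by
    rcases hmin _ (Grp.normal_map_subtype_of_characteristic N K) (map_subtype_le _) with k | k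
    · exact absurd ((map_eq_bot_iff_of_injective _ N.subtype_injective).1 k) K0
    · exact map_injective N.subtype_injective (by rw [k, ← MonoidHom.range_eq_map, range_subtype])
  exact ⟨N, hN, ⟨fun S hS => kmin S hS le_top⟩, nc, PN, np⟩

/-- Transport to a subgroup containing `P`. -/
theorem T4.subtype {P : Sylow 2 G} (h : T4 P) {N : Subgroup G} (hP : (P : Subgroup G) ≤ N) :
    T4 (P.subtype hP) := by
  exact t3_map N.subtype N.subtype_injective (map_subgroupOf_eq_of_le hP) h

/-- Transport along an isomorphism, to any Sylow subgroup (`T4` only depends on the isomorphism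
type of `P`; Sylow subgroups are conjugate). -/
theorem T4.congr {P : Sylow 2 G} (h : T4 P) {H : Type*} [Group H] [Finite H] (e : G ≃* H)
    (Q : Sylow 2 H) : T4 Q := by
  obtain ⟨g, hg⟩ := MulAction.exists_smul_eq G (Q.mapSurjective (f := e.symm.toMonoidHom) e.symm.surjective) P
  refine t3_map ((MulAut.conj g).toMonoidHom.comp e.symm.toMonoidHom) ((MulAut.conj g).injective.comp e.symm.injective) ?_ h
  rw [← hg, ← map_map]
  rfl

end Cfsg.Agent.K5T
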